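import Cfsg.Agent.Lib.Helper11.WE6c1.D0
import Cfsg.Agent.Lib.Helper11.Words

set_option autoImplicit false
set_option maxRecDepth 100000

namespace Cfsg.Agent.Lib.Helper11.WE6c1

noncomputable def fc (i : ℕ) : ℕ := fc0_0 i
noncomputable def sc (i : ℕ) : ℕ := sc0_0 i
noncomputable def nc (i : ℕ) : ℕ := nc0_0 i
noncomputable def cc (i : ℕ) : ℕ := cc0_0 i

noncomputable def INV : ℕ := 4294688
def isH (l : ℕ) : Bool := decide (l ∈ [])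
def gens : List ℕ := [1, 2, 3, 4]
def rt : RT := (.node 5 (.node 3 (.node 2 (.node 1 (.leaf 6 1 [2, 1, 2, 1, 2, 1]) (.leaf 7 0 [1, 3, 1, 3])) (.leaf 11 1 [3, 2, 3, 2, 3, 2])) (.node 4 (.leaf 7 1 [3, 1, 3, 1]) (.leaf 8 0 [1, 4, 1, 4]))) (.node 8 (.node 7 (.node 6 (.leaf 12 0 [2, 4, 2, 4]) (.leaf 16 1 [4, 3, 4, 3, 4, 3])) (.leaf 12 1 [4, 2, 4, 2])) (.node 9 (.leaf 8 1 [4, 1, 4, 1]) (.leaf 0 0 []))))


end Cfsg.Agent.Lib.Helper11.WE6c1
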